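import Cfsg.Agent.Eq.Def_Local
import Cfsg.Agent.Eq.Def_Involutions
import Cfsg.Agent.Cores.GenFitting
import Cfsg.Agent.StronglyEmbedded.Basic

/-!
# A tightly embedded subgroup under a simple generalised Fitting subgroup

If `K ∩ N(H)` is strongly embedded in the normal closure `K` of `H` and `F*(G)` is simple of even
order, then `F*(G) ∩ N(H)` is strongly embedded in `F*(G)`.
-/

set_option autoImplicit false

namespace CfsgLib.TightlyEmbedded76

open Cfsg

variable {G : Type*} [Group G] [Finite G]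

theorem le_normalClosure_of_simple (L : Subgroup G) [L.Normal] (hL : IsSimpleGroup L)
    (hC : Subgroup.centralizer (L : Set G) ≤ L) (hna : ¬ IsMulCommutative L)
    (K : Subgroup G) [K.Normal] (hK : K ≠ ⊥) : L ≤ K := by
  rcases (inferInstance : (K.subgroupOf L).Normal).eq_bot_or_eq_top with h | h
  · exfalso
    rw [Subgroup.subgroupOf_eq_bot] at h
    have hKC : K ≤ Subgroup.centralizer (L : Set G) := fun k hk =>
      Subgroup.mem_centralizer_iff.2 fun l hl =>
        Subgroup.commute_of_normal_of_disjoint L K inferInstance inferInstance h.symm l k hl hk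
    refine hK (eq_bot_iff.2 fun k hk => ?_)
    exact h.le_bot ⟨hk, hC (hKC hk)⟩
  · exact Subgroup.subgroupOf_eq_top.1 h

theorem exists_stronglyEmbedded_of_normalClosure (L : Subgroup G) [L.Normal] (hL2 : 2 ∣ Nat.card L)
    (N K : Subgroup G) (hLK : L ≤ K) (hSE : IsStronglyEmbedded (N.subgroupOf K)) :
    ∃ M : Subgroup L, IsStronglyEmbedded M := by
  obtain ⟨hne, heven, hodd⟩ := hSE
  have key : ∀ (g x : G), g ∈ K → g ∉ N → x ∈ K → x ∈ N → g⁻¹ * x * g ∈ N → orderOf x ≠ 2 := by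
    intro g x hg hgN hx hxN hxg hord
    have hmem : (⟨x, hx⟩ : K) ∈ (N.subgroupOf K) ⊓
        (N.subgroupOf K).map (MulAut.conj (⟨g, hg⟩ : K)).toMonoidHom := by
      refine ⟨hxN, ⟨⟨g⁻¹ * x * g, mul_mem (mul_mem (inv_mem hg) hx) hg⟩, hxg, Subtype.ext ?_⟩⟩
      simp [mul_assoc]
    have h1 := (hodd ⟨g, hg⟩ hgN).of_dvd_nat
      ((Subgroup.orderOf_mk _ hmem) ▸ orderOf_dvd_natCard _)
    rw [Subgroup.orderOf_mk, hord] at h1
    exact absurd h1 (by decide)
  obtain ⟨⟨u, huL⟩, hu⟩ := exists_prime_orderOf_dvd_card' 2 hL2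
  rw [Subgroup.orderOf_mk] at hu
  -- an involution of `L` in `N`
  obtain ⟨v, hvL, hvN, hv⟩ : ∃ v : G, v ∈ L ∧ v ∈ N ∧ orderOf v = 2 := by
    obtain ⟨⟨s, hs⟩, hs2⟩ := exists_prime_orderOf_dvd_card' 2 (even_iff_two_dvd.1 heven)
    rw [Subgroup.orderOf_mk] at hs2
    have hu' : orderOf (⟨u, hLK huL⟩ : K) = 2 := by rw [Subgroup.orderOf_mk, hu]
    have hsK : orderOf s = 2 := hs2
    obtain ⟨c, hc⟩ := isConj_iff.1
      (CfsgLib.StronglyEmbedded.isConj_involutions ⟨hne, heven, hodd⟩ hu' hsK)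
    have hcu : (c : G) * u * (c : G)⁻¹ = (s : G) := congrArg (fun x : K => (x : G)) hc
    refine ⟨s, ?_, hs, by rwa [Subgroup.orderOf_coe]⟩
    rw [← hcu]
    exact Subgroup.Normal.conj_mem inferInstance u huL c
  refine ⟨N.subgroupOf L, ?_, ?_, ?_⟩
  · intro htop
    rw [Subgroup.subgroupOf_eq_top] at htop
    obtain ⟨g, hg, hgN⟩ : ∃ g, g ∈ K ∧ g ∉ N := by
      by_contra hall
      push Not at hall
      exact hne (Subgroup.subgroupOf_eq_top.2 hall)
    exact key g v hg hgN (hLK hvL) hvN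
      (htop (by simpa using Subgroup.Normal.conj_mem (inferInstance : L.Normal) v hvL g⁻¹)) hv
  · rw [even_iff_two_dvd, ← hv, ← Subgroup.orderOf_mk v hvL]
    have hm : (⟨v, hvL⟩ : L) ∈ N.subgroupOf L := hvN
    rw [← Subgroup.orderOf_mk _ hm]
    exact orderOf_dvd_natCard _
  · rintro ⟨g, hgL⟩ hgN
    by_contra hev
    obtain ⟨w, hw⟩ :=
      exists_prime_orderOf_dvd_card' 2 (even_iff_two_dvd.1 (Nat.not_odd_iff_even.1 hev))
    rw [← Subgroup.orderOf_coe, ← Subgroup.orderOf_coe] at hw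
    obtain ⟨⟨⟨x, hxL⟩, hxmem⟩, rfl⟩ : ∃ w', w' = w := ⟨w, rfl⟩
    obtain ⟨hxN, hxM⟩ := Subgroup.mem_inf.1 hxmem
    obtain ⟨⟨y, hyL⟩, hyN, hyx⟩ := Subgroup.mem_map.1 hxM
    have hx : orderOf x = 2 := hw
    have hyx' : g * y * g⁻¹ = x := congrArg (fun z : L => (z : G)) hyx
    refine key g x (hLK hgL) hgN (hLK hxL) hxN ?_ hx
    rw [← hyx']
    simpa [mul_assoc, Subgroup.mem_subgroupOf] using hyN

/-- Reduction of the simple `F*` criterion to the normal closure criterion. -/
theorem normal_or_stronglyEmbedded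
    (hL2 : 2 ∣ Nat.card (generalizedFittingSubgroup G))
    (hF : IsSimpleGroup ↥(generalizedFittingSubgroup G))
    (hF' : ¬ IsMulCommutative ↥(generalizedFittingSubgroup G)) (H : Subgroup G)
    (hH : IsTightlyEmbedded H)
    (hcrit : H.Normal ∨ IsStronglyEmbedded ((Subgroup.normalizer (H : Set G)).subgroupOf
      (Subgroup.normalClosure (H : Set G)))) :
    H.Normal ∨ ∃ M : Subgroup ↥(generalizedFittingSubgroup G), IsStronglyEmbedded M := by
  rcases hcrit with h | h
  · exact Or.inl h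
  haveI : (generalizedFittingSubgroup G).Normal := inferInstance
  refine Or.inr (exists_stronglyEmbedded_of_normalClosure _ hL2 _ _
    (le_normalClosure_of_simple _ hF CfsgLib.Cores.centralizer_generalizedFitting_le hF' _ ?_) h)
  intro hbot
  have hle : H ≤ ⊥ := hbot ▸ Subgroup.le_normalClosure
  have hev := hH.1
  rw [le_bot_iff.1 hle] at hev
  simp at hev

/-- A solvable simple group is commutative. -/
theorem isMulCommutative_of_solvable_simple {L : Type*} [Group L] (hS : IsSimpleGroup L)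
    (hsol : Group.IsSolvable L) : IsMulCommutative L := by
  haveI := hS
  haveI := hsol
  exact ⟨⟨(IsSimpleGroup.comm_iff_isSolvable).2 hsol⟩⟩

end CfsgLib.TightlyEmbedded76
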